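import Cfsg.Agent.FusionPSL.Upper
import Cfsg.Agent.FusionCrit.Normalizer

/-!
The fusion system of a central quotient of `SL_n(K)`, `n ≥ 3`, in the defining characteristic is simple.
-/

set_option autoImplicit false

namespace Cfsg.Agent.FusionPSL

open Matrix Cfsg Cfsg.FusionSystem
open scoped MatrixGroups

variable {K : Type*} [Field K] [Fintype K] {n : ℕ}

local notation "SLn" => SpecialLinearGroup (Fin n) K

/-- The subgroup of `U` of matrices with a zero in position `(i, i+1)`. -/
def utriAt (i j : Fin n) (hij : (j : ℕ) = i + 1) : Subgroup SLn where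
  carrier := {A | A ∈ (utri : Subgroup SLn) ∧ A i j = 0}
  one_mem' := ⟨one_mem _, by
    have : i ≠ j := fun h => by subst h; omega
    show (1 : Matrix (Fin n) (Fin n) K) i j = 0
    rw [Matrix.one_apply_ne this]⟩
  mul_mem' := fun {A B} hA hB => ⟨mul_mem hA.1 hB.1, by
    rw [mul_val, Matrix.mul_apply]
    refine Finset.sum_eq_zero fun k _ => ?_
    rcases eq_or_ne k i with rfl | hki
    · rw [hB.2, mul_zero]
    · rcases le_or_gt k i with hk | hk
      · rw [hA.1 i k hk, Matrix.one_apply_ne hki.symm, zero_mul]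
      · rcases eq_or_ne k j with rfl | hkj
        · rw [hA.2, zero_mul]
        · have : j ≤ k := by
            have h' : (i : ℕ) < k := hk
            show (j : ℕ) ≤ k
            omega
          rw [hB.1 k j this, Matrix.one_apply_ne hkj, mul_zero]⟩
  inv_mem' := fun {A} hA => ⟨inv_mem hA.1, by
    have h : ((A * A⁻¹ : SLn) : Matrix (Fin n) (Fin n) K) i j = 0 := by
      rw [mul_inv_cancel]
      have : i ≠ j := fun h => by subst h; omega
      show (1 : Matrix (Fin n) (Fin n) K) i j = 0
      rw [Matrix.one_apply_ne this]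
    rw [mul_val, Matrix.mul_apply, Finset.sum_eq_single i] at h
    · rwa [hA.1 i i le_rfl, Matrix.one_apply_eq, one_mul] at h
    · intro k _ hki
      rcases le_or_gt k i with hk | hk
      · rw [hA.1 i k hk, Matrix.one_apply_ne hki.symm, zero_mul]
      · rcases eq_or_ne k j with rfl | hkj
        · rw [hA.2, zero_mul]
        · have : j ≤ k := by
            have h' : (i : ℕ) < k := hk
            show (j : ℕ) ≤ k
            omega
          rw [(inv_mem hA.1 : A⁻¹ ∈ (utri : Subgroup SLn)) k j this, Matrix.one_apply_ne hkj,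
            mul_zero]
    · intro h'; exact absurd (Finset.mem_univ i) h'⟩

/-- The root elements at `(i, i+1)` and `(i+1, i)` normalize `utriAt i`. -/
theorem conj_utriAt (i j : Fin n) (hij : (j : ℕ) = i + 1) (a b : Fin n) (hab : a ≠ b)
    (h : (a = i ∧ b = j) ∨ (a = j ∧ b = i)) (c : K) {A : SLn} (hA : A ∈ utriAt i j hij) :
    xr a b hab c * A * (xr a b hab c)⁻¹ ∈ utriAt i j hij := by
  obtain ⟨hU, h0⟩ := hA
  have hl : ∀ r s : Fin n, s ≤ r → (A : Matrix (Fin n) (Fin n) K) r s =
      if r = s then 1 else 0 := fun r s h => by rw [hU r s h, Matrix.one_apply]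
  have hle : ∀ r s : Fin n, (s ≤ r) ↔ (s : ℕ) ≤ r := fun _ _ => Iff.rfl
  have hne : ∀ r s : Fin n, (r = s) ↔ (r : ℕ) = s := fun _ _ => Fin.ext_iff
  have h00 : ∀ r s : Fin n, (s : ℕ) < r → (A : Matrix (Fin n) (Fin n) K) r s = 0 := by
    intro r s h
    rw [hU r s (le_of_lt h), Matrix.one_apply_ne]
    intro e; rw [e] at h; exact lt_irrefl _ h
  have h11 : ∀ r : Fin n, (A : Matrix (Fin n) (Fin n) K) r r = 1 := fun r => by
    rw [hU r r le_rfl, Matrix.one_apply_eq]
  rcases h with ⟨ha, hb⟩ | ⟨ha, hb⟩
  · have hai : (a : ℕ) = i := congrArg Fin.val ha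
    have hbj : (b : ℕ) = j := congrArg Fin.val hb
    have hba : (A : Matrix (Fin n) (Fin n) K) b a = 0 := h00 b a (by omega)
    constructor
    · intro r s hsr
      have hsr' : (s : ℕ) ≤ r := hsr
      rw [conj_xr_apply, ← hU r s hsr]
      by_cases hr : r = a
      · subst hr
        have hsb : s ≠ b := fun e => by rw [e] at hsr'; omega
        rw [if_pos rfl, if_neg hsb, h00 b s (by omega)]
        ring
      · rw [if_neg hr, if_neg hr]
        by_cases hs : s = b
        · subst hs
          rw [if_pos rfl, h00 r a (by omega)]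
          ring
        · rw [if_neg hs]
          ring
    · rw [conj_xr_apply, if_pos ha.symm, if_pos hb.symm, if_pos ha.symm, ← hb, h11 b, hba,
        ← ha, h11 a]
      rw [show (A : Matrix (Fin n) (Fin n) K) a b = 0 by rw [ha, hb]; exact h0]
      ring
  · have haj : (a : ℕ) = j := congrArg Fin.val ha
    have hbi : (b : ℕ) = i := congrArg Fin.val hb
    have hba : (A : Matrix (Fin n) (Fin n) K) b a = 0 := by rw [ha, hb]; exact h0
    constructor
    · intro r s hsr
      have hsr' : (s : ℕ) ≤ r := hsr
      rw [conj_xr_apply, ← hU r s hsr, hba, mul_zero]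
      have e1 : r = a → (A : Matrix (Fin n) (Fin n) K) b s = if s = b then 1 else 0 := by
        intro hr
        subst hr
        split_ifs with hs
        · rw [hs]; exact h11 b
        · by_cases hsa : s = r
          · rw [hsa]; exact hba
          · have h1 : (s : ℕ) ≠ r := fun e => hsa (Fin.ext e)
            have h2 : (s : ℕ) ≠ b := fun e => hs (Fin.ext e)
            exact h00 b s (by omega)
      have e2 : s = b → (A : Matrix (Fin n) (Fin n) K) r a = if r = a then 1 else 0 := by
        intro hs
        subst hs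
        split_ifs with hr
        · rw [hr]; exact h11 a
        · by_cases hrs : r = s
          · rw [hrs]; exact hba
          · have h1 : (r : ℕ) ≠ s := fun e => hrs (Fin.ext e)
            have h2 : (r : ℕ) ≠ a := fun e => hr (Fin.ext e)
            exact h00 r a (by omega)
      by_cases hr : r = a <;> by_cases hs : s = b
      · rw [if_pos hr, if_pos hr, if_pos hs, e1 hr, e2 hs, if_pos hs, if_pos hr]
        ring
      · rw [if_pos hr, if_neg hs, e1 hr, if_neg hs]
        ring
      · rw [if_neg hr, if_neg hr, if_pos hs, e2 hs, if_neg hr]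
        ring
      · rw [if_neg hr, if_neg hs]
        ring
    · have h1 : i ≠ a := fun e => by rw [e] at hbi; exact hab (Fin.ext hbi.symm)
      have h2 : j ≠ b := fun e => by rw [e] at haj; exact hab (Fin.ext haj)
      rw [conj_xr_apply, if_neg h1, if_neg h2, h0]
      ring

/-- The diagonal element with `λ, λ⁻¹` at `i, i+1` is a product of root elements there. -/
theorem diag2n_mem_closure (i j : Fin n) (hne : i ≠ j) (a : K) (ha : a ≠ 0) (H : Subgroup SLn)
    (h1 : ∀ c, xr i j hne c ∈ H) (h2 : ∀ c, xr j i hne.symm c ∈ H) :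
    SpecialLinearGroup.diag2n hne a ha ∈ H := by
  rw [Linear.diag2n_decompose hne a ha]
  exact mul_mem (mul_mem (mul_mem (mul_mem (mul_mem (h1 _) (h2 _)) (h1 _)) (h1 _)) (h2 _)) (h1 _)

/-- An upper triangular element is generated by `U` and the `diag2n` at adjacent indices. -/
theorem upperTriangular_mem {A : SLn} (hA : ∀ i j : Fin n, j < i → A i j = 0) (H : Subgroup SLn)
    (hU : (utri : Subgroup SLn) ≤ H)
    (hT : ∀ (i j : Fin n) (h : i ≠ j), (j : ℕ) = i + 1 → ∀ (a : K) (ha : a ≠ 0),
      SpecialLinearGroup.diag2n h a ha ∈ H) : A ∈ H := by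
  classical
  have hdet : ∀ B : SLn, (∀ i j : Fin n, j < i → B i j = 0) → ∏ k, B k k = 1 := by
    intro B hB
    rw [← Matrix.det_of_isUpperTriangular (M := (B : Matrix (Fin n) (Fin n) K)) fun r s h => hB r s h]
    exact B.2
  suffices h : ∀ d : ℕ, ∀ B : SLn, (∀ i j : Fin n, j < i → B i j = 0) →
      (∀ k : Fin n, (k : ℕ) + d < n → B k k = 1) → B ∈ H from h n A hA fun k hk => by omega
  intro d
  induction d with
  | zero =>
    intro B hB h1
    refine hU fun i j hji => ?_
    rcases hji.lt_or_eq with h | rfl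
    · rw [hB i j h, Matrix.one_apply_ne h.ne']
    · rw [h1 j (by simp), Matrix.one_apply_eq]
  | succ d ih =>
    intro B hB h1
    by_cases hk : ∃ k : Fin n, (k : ℕ) + d + 1 = n
    · obtain ⟨k, hk⟩ := hk
      have hne0 : B k k ≠ 0 := fun h0 => zero_ne_one' K (by
        rw [← hdet B hB]; exact (Finset.prod_eq_zero (f := fun l => (B : Matrix (Fin n) (Fin n) K) l l) (Finset.mem_univ k) h0).symm)
      rcases Nat.eq_zero_or_pos d with rfl | hd
      · refine ih B hB fun l hl => ?_
        rcases eq_or_ne l k with rfl | hlk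
        · have := hdet B hB
          rwa [Finset.prod_eq_single l] at this
          · intro m _ hm
            refine h1 m ?_
            have : (m : ℕ) ≠ l := fun h => hm (Fin.ext h)
            omega
          · intro h; exact absurd (Finset.mem_univ l) h
        · refine h1 l ?_
          have : (l : ℕ) ≠ k := fun h => hlk (Fin.ext h)
          omega
      · let k' : Fin n := ⟨k + 1, by omega⟩
        have hkk' : k ≠ k' := fun h => by
          have := congrArg Fin.val h
          simp [k'] at this
        set D := SpecialLinearGroup.diag2n (F := K) hkk' (B k k) hne0 with hD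
        have hmem : D ∈ H := hT k k' hkk' rfl _ _
        set C := D⁻¹ * B with hC
        have hCe : ∀ r s, (D : Matrix (Fin n) (Fin n) K) r r * C r s = B r s := by
          intro r s
          have : D * C = B := by rw [hC]; group
          conv_rhs => rw [← this, mul_val, Matrix.mul_apply]
          rw [Finset.sum_eq_single r]
          · intro m _ hm
            rw [hD, SpecialLinearGroup.diag2n_coe, Matrix.diagonal_apply_ne _ hm.symm, zero_mul]
          · intro h; exact absurd (Finset.mem_univ r) h
        have hDr : ∀ r, (D : Matrix (Fin n) (Fin n) K) r r =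
            if r = k then B k k else if r = k' then (B k k)⁻¹ else 1 := fun r => by
          rw [hD, SpecialLinearGroup.diag2n_coe, Matrix.diagonal_apply_eq]
        have hDne : ∀ r, (D : Matrix (Fin n) (Fin n) K) r r ≠ 0 := fun r => by
          rw [hDr]; split_ifs <;> simp [hne0]
        have hCB : C ∈ H := by
          refine ih C (fun r s h => ?_) fun l hl => ?_
          · have := hCe r s
            rw [hB r s h] at this
            exact (mul_eq_zero.1 this).resolve_left (hDne r)
          · have h2 := hCe l l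
            rw [hDr] at h2
            rcases eq_or_ne l k with rfl | hlk
            · rw [if_pos rfl] at h2
              exact mul_left_cancel₀ hne0 (h2.trans (mul_one _).symm)
            · have h3 : (l : ℕ) ≠ k := fun h => hlk (Fin.ext h)
              rw [if_neg hlk, if_neg (fun h => by
                have := congrArg Fin.val h
                simp [k'] at this
                omega), one_mul] at h2
              rw [h2, h1 l (by omega)]
        have : B = D * C := by rw [hC]; group
        rw [this]
        exact mul_mem hmem hCB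
    · push Not at hk
      exact ih B hB fun l hl => h1 l (by have := hk l; omega)

section Hom

variable {G : Type*} [Group G] [Finite G] (f : SpecialLinearGroup (Fin n) K →* G)

/-- The kernel of a map with central kernel meets `U` trivially. -/
theorem injOn_utri (hker : f.ker ≤ Subgroup.center SLn) {u : SLn} (hu : u ∈ (utri : Subgroup SLn))
    (h : f u = 1) : u = 1 := by
  refine sl_ext fun r s => ?_
  rcases le_or_gt s r with hsr | hsr
  · exact hu r s hsr
  · have hc := hker (MonoidHom.mem_ker.2 h)
    have h1 := congrArg (fun X : SLn => (X : Matrix (Fin n) (Fin n) K) r r)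
      (Subgroup.mem_center_iff.1 hc (xr s r hsr.ne' 1))
    simp only [xr_mul_apply, mul_xr_apply, if_true, if_neg hsr.ne] at h1
    rw [show (1 : SLn) = 1 from rfl]
    show (u : Matrix (Fin n) (Fin n) K) r s = (1 : Matrix (Fin n) (Fin n) K) r s
    rw [Matrix.one_apply_ne hsr.ne]
    simpa using h1

theorem comm_of_map_comm (hker : f.ker ≤ Subgroup.center SLn) {a b : SLn}
    (ha : a ∈ (utri : Subgroup SLn)) (hb : b ∈ (utri : Subgroup SLn))
    (h : f a * f b = f b * f a) : a * b = b * a := by
  have h1 := injOn_utri f hker (mul_mem (mul_mem (mul_mem ha hb) (inv_mem ha)) (inv_mem hb))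
    (by rw [map_mul, map_mul, map_mul, h, map_inv, map_inv]; group)
  calc a * b = a * b * a⁻¹ * b⁻¹ * (b * a) := by group
    _ = b * a := by rw [h1, one_mul]

variable (p : ℕ) [Fact p.Prime] [CharP K p]

theorem orderOf_map_xr (i j : Fin n) (h : i ≠ j) (c : K) :
    ∃ k, orderOf (f (xr i j h c)) = p ^ k := by
  have h1 : f (xr i j h c) ^ p = 1 := by
    rw [← map_pow, xr_pow, nsmul_eq_mul, CharP.cast_eq_zero, zero_mul,
      show (xr i j h (0 : K) : SLn) = 1 from SpecialLinearGroup.transvection_coeff_zero h, map_one]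
  obtain ⟨k, -, hk⟩ := (Nat.dvd_prime_pow (Fact.out : p.Prime) (m := 1)).1
    (show orderOf (f (xr i j h c)) ∣ p ^ 1 by rw [pow_one]; exact orderOf_dvd_of_pow_eq_one h1)
  exact ⟨k, hk⟩

variable (hn : 3 ≤ n) (hf : Function.Surjective f) (hker : f.ker ≤ Subgroup.center (SpecialLinearGroup (Fin n) K))
  (S : Sylow p G) (hS : (utri : Subgroup (SpecialLinearGroup (Fin n) K)).map f = (S : Subgroup G))
include hn hker hS

theorem stronglyClosed_eq {T : Subgroup G}
    (hT : (groupFusionSystem (S : Subgroup G)).StronglyClosed T) :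
    T = ⊥ ∨ T = (S : Subgroup G) := by
  classical
  refine or_iff_not_imp_left.2 fun hT1 => le_antisymm hT.1 ?_
  obtain ⟨z, hzT, hz1, hzc⟩ := FusionCrit.exists_central_of_stronglyClosed S hT hT1
  obtain ⟨w, hw, rfl⟩ : z ∈ (utri : Subgroup SLn).map f := hS.symm ▸ hT.1 hzT
  have hw1 : w ≠ 1 := fun h => hz1 (h ▸ map_one f)
  have hwc : ∀ (a b : Fin n) (hab : a < b), xr a b hab.ne 1 * w = w * xr a b hab.ne 1 :=
    fun a b hab => comm_of_map_comm f hker (xr_mem_utri _ _ hab 1) hw
      (hzc _ (hS ▸ ⟨_, xr_mem_utri _ _ hab 1, rfl⟩))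
  -- only the corner entry of a central element is nonzero
  have hentry : ∀ a b : Fin n, a < b → (w : Matrix (Fin n) (Fin n) K) a b ≠ 0 →
      (a : ℕ) = 0 ∧ (b : ℕ) + 1 = n := by
    intro a b hab h0
    constructor
    · by_contra ha
      let a' : Fin n := ⟨0, by omega⟩
      have ha' : a' < a := Nat.pos_of_ne_zero ha
      have h := congrArg (fun X : SLn => (X : Matrix (Fin n) (Fin n) K) a' b) (hwc a' a ha')
      simp only [xr_mul_apply, mul_xr_apply, if_true, if_neg hab.ne'] at h
      exact h0 (by simpa using h)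
    · by_contra hb
      let b' : Fin n := ⟨n - 1, by omega⟩
      have hb' : b < b' := by show (b : ℕ) < n - 1; omega
      have h := congrArg (fun X : SLn => (X : Matrix (Fin n) (Fin n) K) a b') (hwc b b' hb')
      simp only [xr_mul_apply, mul_xr_apply, if_true, if_neg hab.ne] at h
      exact h0 (by simpa using h)
  let a₀ : Fin n := ⟨0, by omega⟩
  let b₀ : Fin n := ⟨n - 1, by omega⟩
  have hab₀ : a₀ < b₀ := by show (0 : ℕ) < n - 1; omega
  set c := (w : Matrix (Fin n) (Fin n) K) a₀ b₀ with hcdef
  have hwx : w = xr a₀ b₀ hab₀.ne c := by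
    refine sl_ext fun r s => ?_
    rw [xr_coe, Matrix.add_apply]
    rcases le_or_gt s r with h | h
    · rw [hw r s h, Matrix.single_apply_of_ne, add_zero]
      rintro ⟨rfl, rfl⟩
      exact absurd hab₀ (not_lt.2 h)
    · rw [Matrix.one_apply_ne h.ne, zero_add]
      by_cases h0 : r = a₀ ∧ s = b₀
      · obtain ⟨rfl, rfl⟩ := h0
        simp [hcdef]
      · rw [Matrix.single_apply_of_ne _ _ _ _ _ (fun hh => h0 ⟨hh.1.symm, hh.2.symm⟩)]
        by_contra hne
        obtain ⟨e1, e2⟩ := hentry r s h hne
        exact h0 ⟨Fin.ext e1, Fin.ext (by show (s : ℕ) = n - 1; omega)⟩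
  have hc0 : c ≠ 0 := fun h => hw1 (by rw [hwx, h]; exact SpecialLinearGroup.transvection_coeff_zero _)
  have hgen : ∀ (i j : Fin n) (h : i < j) (d : K), f (xr i j h.ne d) ∈ T := by
    intro i j h d
    rcases eq_or_ne d 0 with rfl | hd
    · rw [show (xr i j h.ne (0 : K) : SLn) = 1 from SpecialLinearGroup.transvection_coeff_zero _,
        map_one]
      exact one_mem T
    · obtain ⟨g, hg⟩ := exists_conj_xr hn a₀ b₀ i j hab₀.ne h.ne hc0 hd
      have := FusionCrit.conj_mem_of_stronglyClosed S hT hzT (f g) (by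
        rw [← map_inv, ← map_mul, ← map_mul, hwx, hg, ← hS]
        exact ⟨_, xr_mem_utri _ _ h d, rfl⟩)
      rwa [← map_inv, ← map_mul, ← map_mul, hwx, hg] at this
  rw [← hS]
  refine (Subgroup.map_mono utri_le_closure).trans ?_
  rw [MonoidHom.map_closure, Subgroup.closure_le]
  rintro _ ⟨_, ⟨i, j, h, d, rfl⟩, rfl⟩
  exact hgen i j h d

include hf in
theorem normalizer_le :
    Subgroup.normalizer ((S : Subgroup G) : Set G) ≤ Subgroup.closure (FusionCrit.goodSet S) := by
  classical
  intro g hg
  obtain ⟨A, rfl⟩ := hf g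
  have hmem : ∀ u ∈ (utri : Subgroup SLn), f u ∈ (S : Subgroup G) := fun u hu => hS ▸ ⟨u, hu, rfl⟩
  -- `A` normalizes `U`
  have hAU : ∀ u ∈ (utri : Subgroup SLn), A * u * A⁻¹ ∈ (utri : Subgroup SLn) := by
    intro u hu
    have h1 : f (A * u * A⁻¹) ∈ (S : Subgroup G) := by
      rw [map_mul, map_mul, map_inv]
      exact (Subgroup.mem_normalizer_iff.1 hg _).1 (hmem u hu)
    obtain ⟨u', hu', he⟩ : f (A * u * A⁻¹) ∈ (utri : Subgroup SLn).map f := hS.symm ▸ h1
    set z := u'⁻¹ * (A * u * A⁻¹) with hz
    have hzc : z ∈ Subgroup.center SLn := hker (MonoidHom.mem_ker.2 (by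
      rw [hz, map_mul, map_inv, he, inv_mul_cancel]))
    obtain ⟨k, hk⟩ := (isPGroup_utri (K := K) (n := n) p) ⟨u, hu⟩
    obtain ⟨l, hl⟩ := (isPGroup_utri (K := K) (n := n) p) ⟨u', hu'⟩
    have hk' : (A * u * A⁻¹) ^ p ^ (k + l) = 1 := by
      rw [conj_pow, pow_add, pow_mul, show u ^ p ^ k = 1 from congrArg Subtype.val hk, one_pow]
      group
    have hl' : u' ^ p ^ (k + l) = 1 := by
      rw [pow_add, mul_comm, pow_mul, show u' ^ p ^ l = 1 from congrArg Subtype.val hl, one_pow]
    have hzp : z ^ p ^ (k + l) = 1 := by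
      have hcm : Commute u' z := Subgroup.mem_center_iff.1 hzc u'
      have h2 := hcm.mul_pow (p ^ (k + l))
      rw [hz, mul_inv_cancel_left, hk', ← hz, hl', one_mul] at h2
      exact h2.symm
    have hz1 : z = 1 := by
      obtain ⟨r, hr, hrz⟩ := Matrix.SpecialLinearGroup.mem_center_iff.1 hzc
      have h3 : r ^ p ^ (k + l) = 1 := by
        have h4 := congrArg (fun X : SLn => (X : Matrix (Fin n) (Fin n) K) ⟨0, by omega⟩ ⟨0, by omega⟩) hzp
        have h5 : ((z ^ p ^ (k + l) : SLn) : Matrix (Fin n) (Fin n) K) =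
            (z : Matrix (Fin n) (Fin n) K) ^ p ^ (k + l) := rfl
        simp only [h5, ← hrz, ← map_pow] at h4
        simpa [Matrix.scalar_apply] using h4
      have : r = 1 := by
        have h6 : (r - 1) ^ p ^ (k + l) = 0 := by
          rw [sub_pow_char_pow, h3, one_pow, sub_self]
        exact sub_eq_zero.1 (eq_zero_of_pow_eq_zero h6)
      refine sl_ext fun a b => ?_
      rw [← hrz, this]
      simp [Matrix.scalar_apply, Matrix.one_apply, Matrix.diagonal_apply]
    have : A * u * A⁻¹ = u' := by
      calc A * u * A⁻¹ = u' * z := by rw [hz]; group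
        _ = u' := by rw [hz1, mul_one]
    rw [this]; exact hu'
  suffices h : A ∈ (Subgroup.closure (FusionCrit.goodSet S)).comap f from h
  refine upperTriangular_mem (upperTriangular_of_normalizes hAU) _ ?_ ?_
  · intro u hu
    exact Subgroup.subset_closure (FusionCrit.self_subset_goodSet S (hmem u hu))
  · intro i j hne hij a ha
    refine Subgroup.subset_closure ⟨?_, (utriAt i j hij).map f, ?_, ?_, ?_, ?_⟩
    · -- normalizes S
      refine Subgroup.mem_normalizer_fintype fun x hx => ?_
      obtain ⟨u, hu, rfl⟩ : x ∈ (utri : Subgroup SLn).map f := hS.symm ▸ hx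
      rw [← map_inv, ← map_mul, ← map_mul]
      refine hmem _ fun r s hsr => ?_
      rw [mul_val, mul_val, show ((SpecialLinearGroup.diag2n hne a ha)⁻¹ : SLn).1 =
        diagonal (fun k ↦ (if k = i then a else if k = j then a⁻¹ else 1)⁻¹) from ?_,
        SpecialLinearGroup.diag2n_coe, Matrix.mul_diagonal, Matrix.diagonal_mul, hu r s hsr]
      · rcases eq_or_ne r s with rfl | hrs
        · rw [Matrix.one_apply_eq, mul_one, mul_inv_cancel₀]
          split_ifs <;> simp [ha]
        · rw [Matrix.one_apply_ne hrs]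
          ring
      · have e : ∀ (B : SLn) (D : Matrix (Fin n) (Fin n) K),
            (B : Matrix (Fin n) (Fin n) K) * D = 1 → (B⁻¹ : SLn).1 = D := by
          intro B D h
          have h2 : ((B⁻¹ : SLn) : Matrix (Fin n) (Fin n) K) * (B : Matrix (Fin n) (Fin n) K) = 1 := by
            rw [← mul_val, inv_mul_cancel]; rfl
          exact (left_inv_eq_right_inv h2 h)
        refine e _ _ ?_
        rw [SpecialLinearGroup.diag2n_coe, Matrix.diagonal_mul_diagonal, ← Matrix.diagonal_one]
        congr 1
        funext k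
        rw [mul_inv_cancel₀]
        split_ifs <;> simp [ha]
    · rw [← hS]
      exact Subgroup.map_mono fun A hA => hA.1
    · rw [← hS]
      rintro _ ⟨u, hu, rfl⟩
      refine Subgroup.mem_normalizer_fintype fun x hx => ?_
      obtain ⟨v, hv, rfl⟩ := hx
      refine ⟨u * v * u⁻¹, ?_, by simp⟩
      have hle : (utri : Subgroup SLn) ≤ Subgroup.closure {x | ∃ i j, ∃ h : i < j, ∃ c : K, x = xr i j h.ne c} :=
        utri_le_closure
      refine ⟨mul_mem (mul_mem hu hv.1) (inv_mem hu), ?_⟩
      -- the entry `(i, i+1)` is additive on `U`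
      have hadd : ∀ {P Q : SLn}, P ∈ (utri : Subgroup SLn) → Q ∈ (utri : Subgroup SLn) →
          ((P * Q : SLn) : Matrix (Fin n) (Fin n) K) i j =
            (P : Matrix (Fin n) (Fin n) K) i j + (Q : Matrix (Fin n) (Fin n) K) i j := by
        intro P Q hP hQ
        rw [mul_val, Matrix.mul_apply, Finset.sum_eq_add i j hne]
        · rw [hP i i le_rfl, hQ j j le_rfl, Matrix.one_apply_eq, Matrix.one_apply_eq]
          ring
        · intro k _ hk
          rcases le_or_gt k i with h | h
          · rw [hP i k h, Matrix.one_apply_ne hk.1.symm, zero_mul]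
          · have h' : (i : ℕ) < k := h
            rw [hQ k j (by show (j : ℕ) ≤ k; omega), Matrix.one_apply_ne hk.2, mul_zero]
        · intro h; exact absurd (Finset.mem_univ i) h
        · intro h; exact absurd (Finset.mem_univ j) h
      have hinv := hadd hu (inv_mem hu)
      rw [mul_inv_cancel] at hinv
      have h1 : (1 : Matrix (Fin n) (Fin n) K) i j = 0 := Matrix.one_apply_ne hne
      rw [hadd (mul_mem hu hv.1) (inv_mem hu), hadd hu hv.1, hv.2, add_zero, ← hinv]
      exact h1
    · -- self-centralizing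
      intro x hx
      obtain ⟨u, hu, rfl⟩ : x ∈ (utri : Subgroup SLn).map f := hS.symm ▸ hx.1
      refine ⟨u, ⟨hu, ?_⟩, rfl⟩
      have hij' : i < j := by show (i : ℕ) < j; omega
      have hcomm : ∀ (a b : Fin n) (h : a < b), ¬(a = i ∧ b = j) →
          xr a b h.ne 1 * u = u * xr a b h.ne 1 := fun a b h hab =>
        comm_of_map_comm f hker (xr_mem_utri _ _ h 1) hu (hx.2 _ ⟨_, ⟨xr_mem_utri _ _ h 1, by
          rw [xr_coe, Matrix.add_apply, Matrix.one_apply_ne hne,
            Matrix.single_apply_of_ne _ _ _ _ _ hab, add_zero]⟩, rfl⟩)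
      by_cases hlast : (j : ℕ) + 1 < n
      · let k : Fin n := ⟨j + 1, hlast⟩
        have hjk : j < k := by show (j : ℕ) < j + 1; omega
        have h := congrArg (fun X : SLn => (X : Matrix (Fin n) (Fin n) K) i k)
          (hcomm j k hjk fun h => hne h.1.symm)
        simp only [xr_mul_apply, mul_xr_apply, if_true, if_neg hne] at h
        simpa using h.symm
      · let k : Fin n := ⟨i - 1, by omega⟩
        have hki : k < i := by show (i : ℕ) - 1 < i; omega
        have h := congrArg (fun X : SLn => (X : Matrix (Fin n) (Fin n) K) k j)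
          (hcomm k i hki fun h => hne h.2)
        simp only [xr_mul_apply, mul_xr_apply, if_true, if_neg hne.symm] at h
        simpa using h
    · refine (show Subgroup.map f _ ≤ _ from ?_) ⟨_, diag2n_mem_closure i j hne a ha
        (Subgroup.closure ({x : SLn | ∃ a b, ∃ hab : a ≠ b,
          ((a = i ∧ b = j) ∨ (a = j ∧ b = i)) ∧ ∃ c : K, x = xr a b hab c}))
        (fun c => Subgroup.subset_closure ⟨i, j, hne, Or.inl ⟨rfl, rfl⟩, c, rfl⟩)
        (fun c => Subgroup.subset_closure ⟨j, i, hne.symm, Or.inr ⟨rfl, rfl⟩, c, rfl⟩), rfl⟩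
      rw [MonoidHom.map_closure]
      refine Subgroup.closure_mono ?_
      rintro _ ⟨_, ⟨a', b', hab, hcase, c, rfl⟩, rfl⟩
      refine ⟨Subgroup.mem_normalizer_fintype fun x hx => ?_, orderOf_map_xr f p _ _ _ _⟩
      obtain ⟨v, hv, rfl⟩ := hx
      exact ⟨_, conj_utriAt i j hij a' b' hab hcase c hv, by simp⟩

include hf in
/-- The fusion system is simple. -/
theorem isSimple_of_hom : (groupFusionSystem (S : Subgroup G)).IsSimple p := by
  refine FusionCrit.isSimple_of_normalizer_generation S ?_
    (fun T hT => stronglyClosed_eq f p hn hker S hS hT) (normalizer_le f p hn hf hker S hS)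
  intro h
  have hm : f (xr ⟨0, by omega⟩ ⟨1, by omega⟩ (by simp [Fin.ext_iff]) (1 : K)) ∈
      (S : Subgroup G) := hS ▸ ⟨_, xr_mem_utri _ _ (by simp) 1, rfl⟩
  rw [h, Subgroup.mem_bot] at hm
  exact xr_ne_one _ _ _ one_ne_zero (injOn_utri f hker (xr_mem_utri _ _ (by simp) 1) hm)

end Hom

end Cfsg.Agent.FusionPSL
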